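import Cfsg.Agent.TwoF.XL.P3.Six
import Cfsg.Agent.TwoF.XE.Wt
import Cfsg.Agent.H915.Gs.Conv
import Cfsg.Agent.H350.Spec.PslOutA
import Cfsg.Agent.TypeD4Two.F8

/-!
# TwoF XL-P3: `L₂(8)`, `p = 3` (helper35)
-/

set_option autoImplicit false

namespace Cfsg.Agent.TwoF.XL.P3

open Module Gen XE Subgroup Matrix
open ClassicalGeometry.AutPSL.Root ClassicalGeometry.AutPSL.Auto H199.PslAut TypeD4Two TypeD4Two.F8

/-- a group of automorphisms whose order does not divide the order of `Out` contains an inner automorphism -/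
theorem exists_inn {S : Type} [Group S] {E : Subgroup (MulAut S)} (h : ¬ Nat.card E ∣ Nat.card (Out S)) :
    ∃ x : S, MulAut.conj x ≠ 1 ∧ MulAut.conj x ∈ E := by
  by_contra hc
  refine h ?_
  have h1 : Inn S ⊓ E = ⊥ := eq_bot_iff.2 fun _ ⟨⟨x, hx⟩, h2⟩ => by_contra fun h3 =>
    hc ⟨x, fun e => h3 (hx ▸ e), hx ▸ h2⟩
  rw [← relIndex_bot_left, ← h1, inf_relIndex_right]
  exact relIndex_dvd_index_of_normal _ _

/-- the unipotent matrices -/
def u8 : Multiplicative F8 →* SLn 2 F8 :=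
  MonoidHom.mk' (fun a => ⟨!![1, a.toAdd; 0, 1], by rw [det_fin_two_of, mul_one, mul_zero, sub_zero]⟩) fun a b =>
    Subtype.ext (by
      show !![1, a.toAdd + b.toAdd; 0, 1] = !![1, a.toAdd; 0, 1] * !![1, b.toAdd; 0, 1]
      rw [mul_fin_two]
      simp [add_comm])

/-- the elements of trace zero -/
def t8 : Subgroup (Multiplicative F8) where
  carrier := {a | a.toAdd + a.toAdd ^ 2 + a.toAdd ^ 4 = 0}
  one_mem' := by decide +kernel
  mul_mem' := fun {a b} => (by decide +kernel : ∀ a b : F8, a + a ^ 2 + a ^ 4 = 0 → b + b ^ 2 + b ^ 4 = 0 →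
    (a + b) + (a + b) ^ 2 + (a + b) ^ 4 = 0) _ _
  inv_mem' := fun h => h

/-- the matrices -/
def m8 (i : Fin 3) : Matrix (Fin 2) (Fin 2) F8 :=
  match i with
  | 0 => !![0, 1; 1, 1]
  | 1 => !![ofN 2, ofN 6; ofN 6, ofN 4]
  | 2 => !![ofN 2, 0; 0, ofN 5]

theorem m8_det : ∀ i, (m8 i).det = 1 := by
  simp only [det_fin_two]
  decide +kernel

/-- the elements -/
def e8 (i : Fin 3) : SLn 2 F8 := ⟨m8 i, m8_det i⟩

theorem pr8_inj : Function.Injective (pr : SLn 2 F8 →* PL 2 F8) := (injective_iff_map_eq_one _).2 fun a ha => by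
  obtain ⟨r, h1, h2⟩ := Matrix.SpecialLinearGroup.mem_center_iff.1 ((pr_eq_one_iff a).1 ha)
  obtain rfl : r = 1 := (by decide +kernel : ∀ r : F8, r ^ 2 = 1 → r = 1) r h1
  exact Subtype.ext (h2.symm.trans (map_one _))

theorem u8_inj : Function.Injective u8 := fun _ _ h =>
  Multiplicative.toAdd.injective (congrArg (fun M : SLn 2 F8 => M.1 0 1) h)

theorem aut8 {σ : F8 ≃+* F8} (h : σ ≠ 1) : ∃ k, (k = 2 ∨ k = 4) ∧ ∀ x, σ x = x ^ k := by
  have h1 : σ (ofN 2) ^ 3 = σ (ofN 2) + 1 := by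
    rw [← map_pow, show (ofN 2 : F8) ^ 3 = ofN 2 + 1 by decide +kernel, map_add, map_one]
  have key : ∀ k, 0 < k → σ (ofN 2) = ofN 2 ^ k → ∀ x, σ x = x ^ k := fun k hk e x => by
    rcases (by decide +kernel : ∀ x : F8, x = 0 ∨ ∃ i : Fin 7, x = ofN 2 ^ i.1) x with rfl | ⟨i, rfl⟩
    · rw [map_zero, zero_pow hk.ne']
    · rw [map_pow, e, ← pow_mul, ← pow_mul, mul_comm]
  rcases (by decide +kernel : ∀ t : F8, t ^ 3 = t + 1 → t = ofN 2 ^ 1 ∨ t = ofN 2 ^ 2 ∨ t = ofN 2 ^ 4) _ h1 with e | e | e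
  · exact (h (RingEquiv.ext fun x => (key 1 one_pos e x).trans (pow_one x))).elim
  · exact ⟨2, Or.inl rfl, key 2 two_pos e⟩
  · exact ⟨4, Or.inr rfl, key 4 four_pos e⟩

theorem fld_u8 (σ : F8 ≃+* F8) (a : Multiplicative F8) : fld σ (u8 a) = u8 (Multiplicative.ofAdd (σ a.toAdd)) :=
  Subtype.ext (by
    ext i j
    rw [coe_fld_apply]
    fin_cases i <;> fin_cases j
    exacts [map_one σ, rfl, map_zero σ, map_one σ])

section Core

variable {Y : Type} [Group Y] [Finite Y] {V : Type} [AddCommGroup V] [Module (ZMod 3) V] [Finite V]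
  {ρ : Representation (ZMod 3) Y V} {f : SLn 2 F8 →* Y}

theorem cod_lt8 (hρ : Function.Injective ρ) (hf : Function.Injective f) :
    cod ρ (t8.map (f.comp u8)) < cod ρ (f.comp u8).range := by
  have hi : Function.Injective (f.comp u8) := hf.comp u8_inj
  have hc : ∀ a ∈ (f.comp u8).range, ∀ b ∈ (f.comp u8).range, a * b = b * a := by
    rintro _ ⟨a, rfl⟩ _ ⟨b, rfl⟩
    rw [← map_mul, mul_comm, map_mul]
  have he : ∀ a ∈ (f.comp u8).range, a ^ 2 = 1 := by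
    rintro _ ⟨a, rfl⟩
    rw [← map_pow, show a ^ 2 = 1 from (pow_two a).trans (add_self' a), map_one]
  have hl := map_le_range (f.comp u8) t8
  have h1 : ∀ a ∈ (f.comp u8).range, a ≠ 1 →
      cod ρ (zpowers a) = cod ρ (zpowers (f (u8 (Multiplicative.ofAdd 1)))) := by
    rintro _ ⟨a, rfl⟩ ha
    have h0 : a.toAdd ≠ 0 := fun e => ha (by rw [show a = 1 from e, map_one])
    obtain ⟨h2, h3⟩ := (by decide +kernel : ∀ a : F8, a ≠ 0 → a ^ 4 * a ^ 3 - 0 * 0 = 1 ∧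
      !![a ^ 4, 0; 0, a ^ 3] * !![1, 1; 0, 1] = !![1, a; 0, 1] * !![a ^ 4, 0; 0, a ^ 3]) _ h0
    let d : SLn 2 F8 := ⟨!![a.toAdd ^ 4, 0; 0, a.toAdd ^ 3], (det_fin_two_of _ _ _ _).trans h2⟩
    rw [← cod_zpowers_conj (f d) (f (u8 _)), ← map_inv, ← map_mul, ← map_mul,
      mul_inv_eq_of_eq_mul (Subtype.ext h3 : d * u8 (Multiplicative.ofAdd 1) = u8 a * d)]
    rfl
  have h2 := avg_ge (ρ := ρ) Nat.prime_two (by decide) hc he fun g hg h => (h1 g hg h).ge
  have h3 := avg_le (ρ := ρ) Nat.prime_two (by decide) (fun a ha b hb => hc a (hl ha) b (hl hb))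
    (fun a ha => he a (hl ha)) fun g hg h => (h1 g (hl hg) h).le
  have h4 : 0 < cod ρ (zpowers (f (u8 (Multiplicative.ofAdd 1)))) := cod_pos hρ fun e =>
    absurd (hi ((zpowers_eq_bot.1 e).trans (map_one (f.comp u8)).symm)) (by decide +kernel)
  rw [MonoidHom.range_eq_map, card_map_of_injective hi, card_top, Nat.card_eq_fintype_card,
    show Fintype.card (Multiplicative F8) = 8 from card_F8, ← MonoidHom.range_eq_map] at h2
  rw [card_map_of_injective hi, show Nat.card t8 = 4 from (Nat.card_eq_fintype_card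
    (α := {a : F8 // a + a ^ 2 + a ^ 4 = 0})).trans (by decide +kernel)] at h3
  omega

theorem core8 (hρ : Function.Injective ρ) (hf : Function.Injective f) {y : Y} {σ : F8 ≃+* F8} (hσ : σ ≠ 1)
    (hy : y ^ 3 = 1) (h : ∀ M, y * f M * y⁻¹ = f (fld σ M)) (hz : fx ρ (zpowers y) ≤ fx ρ (zpowers (f (e8 0)))) :
    False := by
  obtain ⟨k, hk, hσ⟩ := aut8 hσ
  let t := f (u8 (Multiplicative.ofAdd 1))
  let R := t8.map (f.comp u8)
  have hn : zpowers y ≤ normalizer (R : Set Y) := zpowers_le.2 (mem_normalizer_fintype (by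
    rintro _ ⟨a, ha, rfl⟩
    refine ⟨Multiplicative.ofAdd (σ a.toAdd), ?_, ((h _).trans (congrArg f (fld_u8 σ a))).symm⟩
    show σ a.toAdd + σ a.toAdd ^ 2 + σ a.toAdd ^ 4 = 0
    rw [← map_pow σ, ← map_pow σ, ← map_add σ, ← map_add σ, show a.toAdd + a.toAdd ^ 2 + a.toAdd ^ 4 = 0 from ha, map_zero]))
  have hyt : y * t = t * y := eq_mul_of_mul_inv_eq ((h _).trans (congrArg f ((fld_u8 σ _).trans
    (congrArg (fun a => u8 (Multiplicative.ofAdd a)) (map_one σ)))))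
  have htt : t * t = 1 := by
    rw [← map_mul, ← map_mul, show Multiplicative.ofAdd (1 : F8) * Multiplicative.ofAdd 1 = 1 from add_self' _, map_one,
      map_one]
  have hU : Inv ρ (zpowers y) (fx ρ R ⊓ LinearMap.ker (ρ t + 1)) := (inv_fx hn).inf fun b hb v hv => by
    have h1 : b * t = t * b := by
      obtain ⟨j, rfl⟩ := hb
      exact (Commute.zpow_left hyt j).eq
    rw [LinearMap.mem_ker, LinearMap.add_apply, End.one_apply] at hv ⊢
    rw [← rho_mul, ← h1, rho_mul, ← map_add, hv, map_zero]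
  have hne : fx ρ R ⊓ LinearMap.ker (ρ t + 1) ≠ ⊥ := fun e => by
    refine (cod_lt8 hρ hf).not_ge (Nat.sub_le_sub_left (Submodule.finrank_mono fun v hv => ?_) _)
    have h1 : ρ t v = v := by
      have h2 : v - ρ t v ∈ fx ρ R ⊓ LinearMap.ker (ρ t + 1) := by
        refine ⟨sub_mem hv ?_, ?_⟩
        · rintro _ ⟨a, ha, rfl⟩
          rw [← rho_mul, show (f.comp u8) a * t = t * (f.comp u8) a from
            ((Commute.all a (Multiplicative.ofAdd 1)).map (f.comp u8)).eq, rho_mul, hv _ ⟨a, ha, rfl⟩]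
        · show ρ t (v - ρ t v) + (v - ρ t v) = 0
          rw [map_sub, ← rho_mul, htt, rho_one]
          abel
      rw [e, Submodule.mem_bot, sub_eq_zero] at h2
      exact h2.symm
    rintro _ ⟨a, rfl⟩
    rcases (by decide +kernel : ∀ a : F8, a + a ^ 2 + a ^ 4 = 0 ∨ ∃ b : F8, b + b ^ 2 + b ^ 4 = 0 ∧ a = b + 1) a.toAdd
      with e | ⟨b, e, e'⟩
    · exact hv _ ⟨a, e, rfl⟩
    · rw [show a = Multiplicative.ofAdd b * Multiplicative.ofAdd 1 from e', map_mul, rho_mul]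
      exact (congrArg _ h1).trans (hv _ ⟨Multiplicative.ofAdd b, e, rfl⟩)
  obtain ⟨v, ⟨⟨h1, h2⟩, h3⟩, h4⟩ := Submodule.exists_mem_ne_zero_of_ne_bot
    (inf_fx_ne_bot (elemAb_isPGroup (elemAb_zpowers hy)) hU hne)
  have z1 : ρ (f (e8 0)) v = v := mem_fx_zpowers.1 (hz h3)
  have a1 : ρ (f (u8 (Multiplicative.ofAdd (ofN 2)))) v = v :=
    h1 _ ⟨_, show (ofN 2 : F8) + ofN 2 ^ 2 + ofN 2 ^ 4 = 0 by decide +kernel, rfl⟩
  have b1 : ρ (f (u8 (Multiplicative.ofAdd (ofN 4)))) v = v :=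
    h1 _ ⟨_, show (ofN 4 : F8) + ofN 4 ^ 2 + ofN 4 ^ 4 = 0 by decide +kernel, rfl⟩
  have t1 : ρ t v = v := by
    have e : u8 (Multiplicative.ofAdd 1) = u8 (Multiplicative.ofAdd (ofN 2)) * e8 0 * u8 (Multiplicative.ofAdd (ofN 2)) *
        e8 0 * u8 (Multiplicative.ofAdd (ofN 4)) * e8 0 * u8 (Multiplicative.ofAdd (ofN 4)) * e8 0 * e8 0 *
        u8 (Multiplicative.ofAdd (ofN 4)) * e8 0 * e8 0 := Subtype.ext (show !![1, 1; 0, 1] =
          !![1, ofN 2; 0, 1] * m8 0 * !![1, ofN 2; 0, 1] * m8 0 * !![1, ofN 4; 0, 1] * m8 0 * !![1, ofN 4; 0, 1] * m8 0 *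
            m8 0 * !![1, ofN 4; 0, 1] * m8 0 * m8 0 by decide +kernel)
    simp only [t, e, map_mul, End.mul_apply, z1, a1, b1]
  have h5 : ρ t v + v = 0 := h2
  rw [t1, ← two_smul (ZMod 3), smul_eq_zero] at h5
  exact h5.elim (by decide) h4

end Core

theorem zc8 : Zc 3 (PL 2 F8) 1 := zc_of_cyclic (S2086.result card_F8 2 le_rfl (by omega) (by simp))

theorem cent8 : center (PL 2 F8) = ⊥ := centerL le_rfl fun _ => by rw [card_F8]; omega

theorem le_phi8 {σ : F8 ≃+* F8} (hσ : σ ≠ 1) (h3 : phi 2 F8 σ ^ 3 = 1) : Le 3 (phi 2 F8 σ) 4 := by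
  obtain ⟨k, hk, hσ⟩ := aut8 hσ
  have h7 : pr (e8 2) ^ 7 = 1 := by
    rw [← map_pow, show e8 2 ^ 7 = 1 from Subtype.ext (show m8 2 ^ 7 = 1 by decide +kernel), map_one]
  have h1 : phi 2 F8 σ (pr (e8 2)) = pr (e8 2 ^ k) := congrArg pr (Subtype.ext (by
    show (m8 2).map σ = m8 2 ^ k
    rw [show (σ : F8 → F8) = (· ^ k) from funext hσ]
    rcases hk with rfl | rfl <;> decide +kernel))
  refine Le.of_frob (t := 3) (j := 1) (n := 6) zc8 (by norm_num : Nat.Prime 7) (by norm_num) (by omega) h3 h7 ?_ ?_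
    (Li.of_prime cent8 (by norm_num : Nat.Prime 7) (by omega) (prL_ne_one (t := e8 0)
      (show m8 0 * m8 2 ≠ m8 2 * m8 0 by decide +kernel)) h7 fun d h0 h6 => by interval_cases d <;> decide) (by norm_num)
  · rw [h1, map_pow]
    exact pow_mem (mem_zpowers _) k
  · rw [h1]
    intro e
    have h2 : m8 2 ^ k = m8 2 := congrArg Subtype.val (pr8_inj e)
    revert h2
    rcases hk with rfl | rfl <;> decide +kernel

theorem lo_phi8 {σ : F8 ≃+* F8} (hσ : σ ≠ 1) {E : Subgroup (MulAut (PL 2 F8))} (hE : IsElementaryAbelian 3 E)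
    (h1 : phi 2 F8 σ ∈ E) {x : PL 2 F8} (hx : MulAut.conj x ≠ 1) (h2 : MulAut.conj x ∈ E) : Lo 3 E 5 := by
  have h3 : MulAut.conj (pr (e8 0)) ∈ E := by
    obtain ⟨k, hk, hσ⟩ := aut8 hσ
    obtain ⟨M, rfl⟩ := pr_surjective x
    have hi : Function.Injective (MulAut.conj : PL 2 F8 →* _) :=
      (injective_iff_map_eq_one _).2 fun _ => (conj_eq_one_iff cent8).1
    have h4 : fld σ M = M := pr8_inj (hi ((conj_apply (phi 2 F8 σ) (pr M)).trans
      (mul_inv_eq_of_eq_mul (elemAb_comm hE h1 h2))))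
    have h5 : M * M * M = 1 := pr8_inj (hi (by
      rw [← _root_.pow_three', map_pow, map_pow, hE.2 _ h2, map_one, map_one]))
    have h6 : ∀ i j, M.1 i j ^ k = M.1 i j := fun i j => (hσ _).symm.trans (congrArg (fun N : SLn 2 F8 => N.1 i j) h4)
    have h7 : M.1 = 1 ∨ M.1 = m8 0 ∨ M.1 * M.1 = m8 0 := by
      have h8 : M.1 * M.1 * M.1 = 1 := congrArg Subtype.val h5
      have h9 : ∀ i j, M.1 i j = 0 ∨ M.1 i j = 1 := fun i j => by
        have := h6 i j
        revert this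
        generalize M.1 i j = a
        revert a
        rcases hk with rfl | rfl <;> decide +kernel
      rw [eta_fin_two M.1] at h8 ⊢
      revert h8
      rcases h9 0 0 with a | a <;> rcases h9 0 1 with b | b <;> rcases h9 1 0 with c | c <;> rcases h9 1 1 with d | d <;>
        rw [a, b, c, d] <;> decide +kernel
    rcases h7 with e | e | e
    · exact (hx (by rw [show M = 1 from Subtype.ext e, map_one, map_one])).elim
    · exact (show M = e8 0 from Subtype.ext e) ▸ h2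
    · rw [← show M * M = e8 0 from Subtype.ext e, map_mul, map_mul]
      exact mul_mem h2 h2
  intro Y _ _ V _ _ _ K ρ π φ H A hA
  obtain ⟨ι, i1, i2, i3, i4⟩ := XS.exists_iota zc8 H
  obtain ⟨y, hy, ey⟩ := hA h1
  obtain ⟨z, hz, ez⟩ := hA h3
  obtain rfl : z = ι (pr (e8 0)) := i1 (ez.trans (i3 _).symm)
  by_contra hc
  have h4 := (le_phi8 hσ (hE.2 _ h1)).elt H ey
  have h5 := fx_eq_of_cod_le (ρ := ρ) (zpowers_le.2 hy) (by omega)
  exact core8 (f := ι.comp pr) H.faithful (i2.comp pr8_inj) hσ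
    (i1 (by rw [map_pow, ey, hE.2 _ h1, map_one])) (fun M => (i4 y _).trans (by rw [ey]; rfl))
    (h5 ▸ fx_anti (zpowers_le.2 hz))

theorem row_eight : Row 3 (PL 2 F8) := by
  haveI := finL 2 F8
  have ho := outL2 (F := F8) (r := 2) (f := 3) Nat.prime_two (by omega) card_F8 (by omega)
  have x3 : MulAut.conj (pr (e8 1)) ^ 3 = MulAut.conj (pr (e8 0)) := by
    rw [← map_pow, ← map_pow, show e8 1 ^ 3 = e8 0 from Subtype.ext (show m8 1 ^ 3 = m8 0 by decide +kernel)]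
  have x9 : MulAut.conj (pr (e8 1)) ^ 3 ^ 2 = 1 := by
    rw [pow_two, pow_mul, x3, ← map_pow, ← map_pow, show e8 0 ^ 3 = 1 from
      Subtype.ext (show m8 0 ^ 3 = 1 by decide +kernel), map_one, map_one]
  have hr : ∀ E : Subgroup (MulAut (PL 2 F8)), IsElementaryAbelian 3 E → Nat.card E ≤ 3 ^ 2 :=
    card_le_of_not_elemAb (Q := zpowers (MulAut.conj (pr (e8 1)))) (by
      rw [card_aut cent8, cardL (s := 504) card_F8 le_rfl (by decide +kernel), ho]
      decide +kernel) (by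
      rintro ⟨_, j, rfl⟩
      exact ⟨2, Subtype.ext (by
        show (MulAut.conj (pr (e8 1)) ^ j) ^ 3 ^ 2 = 1
        rw [← zpow_natCast, ← _root_.zpow_mul, mul_comm, _root_.zpow_mul, zpow_natCast, x9, _root_.one_zpow])⟩) fun h =>
      prL_ne_one (s := e8 0) (t := e8 2) (show m8 2 * m8 0 ≠ m8 0 * m8 2 by decide +kernel)
        ((conj_eq_one_iff cent8).1 (x3.symm.trans (h.2 _ (mem_zpowers _))))
  refine ⟨row88_of_rank hr, row89_of_lo fun E hE hn r h0 hc => ?_⟩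
  obtain ⟨α, hα, hi⟩ := SetLike.not_le_iff_exists.1 hn
  obtain ⟨g, σ, rfl⟩ := (exists_form le_rfl α).resolve_right fun h => absurd h.1 (by omega)
  have hσ : σ ≠ 1 := fun e => hi (by
    rw [e, map_one, mul_one]
    obtain ⟨a, ha⟩ := (H350.PslOut.psi_inner_iff le_rfl).2 ⟨GeneralLinearGroup.det g ^ 4, Units.ext (by
      rw [Units.val_pow_eq_pow_val, Units.val_pow_eq_pow_val]
      exact (by decide +kernel : ∀ a : F8, a = (a ^ 4) ^ 2) _)⟩
    exact ⟨a, ha.symm⟩)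
  obtain ⟨b, hb⟩ := H915.GsConv.conv_semi le_rfl hσ (by
    rw [orderOf_eq_prime (hE.2 _ hα) fun e => hi (e ▸ one_mem _)]
    exact Nat.prime_three)
  refine Lo.of_conj (Psi 2 F8 b)⁻¹ ?_
  have hE' := elemAb_map hE (MulAut.conj (Psi 2 F8 b)⁻¹).toMonoidHom
  have h1 : phi 2 F8 σ ∈ E.map (MulAut.conj (Psi 2 F8 b)⁻¹).toMonoidHom := ⟨_, hα, by
    show (Psi 2 F8 b)⁻¹ * _ * (Psi 2 F8 b)⁻¹⁻¹ = _
    rw [hb]
    group⟩
  have hr2 : r ≤ 2 := (Nat.pow_le_pow_iff_right (by norm_num)).1 (hc.symm.trans_le (hr E hE))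
  obtain rfl | rfl : r = 1 ∨ r = 2 := by omega
  · exact ((le_phi8 hσ (hE'.2 _ h1)).lo h1).le (by norm_num)
  · obtain ⟨x, h2, h3⟩ := exists_inn (E := E.map (MulAut.conj (Psi 2 F8 b)⁻¹).toMonoidHom) (by
      rw [card_map_of_injective (f := (MulAut.conj (Psi 2 F8 b)⁻¹).toMonoidHom) (MulAut.conj _).injective, hc, ho]
      decide +kernel)
    exact lo_phi8 hσ hE' h1 h2 h3

end Cfsg.Agent.TwoF.XL.P3
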