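import Cfsg.Agent.TwoF.XL.P3.Uni
import Cfsg.Agent.TwoF.XL.P3.Eight
import Cfsg.Agent.Lib.FieldFour
import Cfsg.Agent.S2739

/-!
# TwoF XL-P3: `L₃(4)`, `p = 3` (helper35)

If the outer diagonal automorphism centralises the centre of `K`, the radical `2⁴` has a canonical abelian lift.
-/

set_option autoImplicit false

namespace Cfsg.Agent.TwoF.XL.P3

open Module Gen XE Subgroup Matrix
open ClassicalGeometry.AutPSL.Root ClassicalGeometry.AutPSL.Auto H199.PslAut Lib.FieldFour Lib.FieldFour.F4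
open scoped commutatorElement

section Cen

variable {Y G : Type*} [Group Y] [Group G] {φ : Y →* G} (hc : ∀ c, φ c = 1 → ∀ y, y * c = c * y)
include hc

theorem exists_cen {a b : Y} (h : φ a = φ b) : ∃ c, b = a * c ∧ ∀ y, y * c = c * y :=
  ⟨a⁻¹ * b, by group, hc _ (by rw [map_mul, map_inv, h, inv_mul_cancel])⟩

theorem comm_congr {a a' b b' : Y} (h : φ a = φ a') (h' : φ b = φ b') : ⁅a, b⁆ = ⁅a', b'⁆ := by
  obtain ⟨c, rfl, h1⟩ := exists_cen hc h
  obtain ⟨d, rfl, h2⟩ := exists_cen hc h'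
  exact (comm_mul_cen (h1 _).symm (h1 _).symm (h2 _).symm (h2 _).symm (h2 _)).symm

theorem comm_of_fix {a b c g : Y} (h1 : φ a * φ b = φ b * φ a) (h2 : φ g * φ b = φ b * φ g)
    (h3 : φ (a * c) = φ (g * a * g⁻¹)) : c * b = b * c := by
  have h4 := hc ⁅a, b⁆ (by rw [map_commutatorElement, commutatorElement_eq_one_iff_mul_comm, h1]) g
  have h5 := comm_congr hc h3 (b := b) (b' := g * b * g⁻¹) (by rw [map_mul, map_mul, map_inv, h2, mul_inv_cancel_right])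
  rw [← conjugate_commutatorElement, h4, mul_inv_cancel_right] at h5
  rw [← commutatorElement_eq_one_iff_mul_comm]
  calc ⁅c, b⁆ = a⁻¹ * (⁅a * c, b⁆ * ⁅a, b⁆⁻¹) * a := by simp only [commutatorElement_def]; group
    _ = 1 := by rw [h5]; group

end Cen

/-- the radical -/
def tq (v : F4 × F4) : GL (Fin 3) F4 :=
  GeneralLinearGroup.mkOfDetNeZero !![1, v.1, v.2; 0, 1, 0; 0, 0, 1] (by simp [det_fin_three])

/-- invertible matrices of size two -/
abbrev Ok (M : F4 × F4 × F4 × F4) : Prop := M.1 * M.2.2.2 - M.2.1 * M.2.2.1 ≠ 0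

/-- the Levi factor -/
def lv (M : F4 × F4 × F4 × F4) (h : Ok M) : GL (Fin 3) F4 :=
  GeneralLinearGroup.mkOfDetNeZero !![1, 0, 0; 0, M.1, M.2.1; 0, M.2.2.1, M.2.2.2] (by simpa [det_fin_three] using h)

/-- the action -/
def ac (v : F4 × F4) (M : F4 × F4 × F4 × F4) : F4 × F4 := (v.1 * M.1 + v.2 * M.2.2.1, v.1 * M.2.1 + v.2 * M.2.2.2)

theorem tq_add (u v : F4 × F4) : tq (u + v) = tq u * tq v := Units.ext (by
  show !![1, u.1 + v.1, u.2 + v.2; 0, 1, 0; 0, 0, 1] =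
    !![1, u.1, u.2; 0, 1, 0; 0, 0, 1] * !![1, v.1, v.2; 0, 1, 0; 0, 0, 1]
  rw [mul_fin_three]
  simp [add_comm])

theorem lv_tq (M : F4 × F4 × F4 × F4) (h : Ok M) (v : F4 × F4) : lv M h * tq (ac v M) = tq v * lv M h := Units.ext (by
  show !![1, 0, 0; 0, M.1, M.2.1; 0, M.2.2.1, M.2.2.2] * !![1, (ac v M).1, (ac v M).2; 0, 1, 0; 0, 0, 1] =
    !![1, v.1, v.2; 0, 1, 0; 0, 0, 1] * !![1, 0, 0; 0, M.1, M.2.1; 0, M.2.2.1, M.2.2.2]
  rw [mul_fin_three, mul_fin_three]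
  simp [ac])

theorem ok_w : Ok (w, 0, 0, w) := by decide

theorem ok_z : Ok (w, 0, 0, v) := by decide

theorem lv_w (M : F4 × F4 × F4 × F4) (h : Ok M) : lv M h * lv _ ok_w = lv _ ok_w * lv M h := Units.ext (by
  show !![1, 0, 0; 0, M.1, M.2.1; 0, M.2.2.1, M.2.2.2] * !![1, 0, 0; 0, w, 0; 0, 0, w] =
    !![1, 0, 0; 0, w, 0; 0, 0, w] * !![1, 0, 0; 0, M.1, M.2.1; 0, M.2.2.1, M.2.2.2]
  rw [mul_fin_three, mul_fin_three]
  simp [mul_comm])

theorem eq_zero_of_tq {u : F4 × F4} (h : Psi 3 F4 (tq u) = 1) : u = 0 := by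
  obtain ⟨c, hc⟩ := (Psi_eq_one_iff (by omega)).1 h
  exact Prod.ext (congrArg (fun g : GL (Fin 3) F4 => g.1 0 1) hc) (congrArg (fun g : GL (Fin 3) F4 => g.1 0 2) hc)

section Core

variable {Y : Type} [Group Y] {φ : Y →* MulAut (PL 3 F4)} (hc : ∀ c, φ c = 1 → ∀ y, y * c = c * y)
  (hf : ∀ g, ∃ y, φ y = Psi 3 F4 g)

theorem phi_conj {g x : Y} {M : F4 × F4 × F4 × F4} {h : Ok M} {u : F4 × F4} (hg : φ g = Psi 3 F4 (lv M h))
    (hx : φ x = Psi 3 F4 (tq (ac u M))) : φ (g * x * g⁻¹) = Psi 3 F4 (tq u) := by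
  rw [map_mul, map_mul, map_inv, hg, hx, ← map_mul, lv_tq, map_mul, mul_inv_cancel_right]

include hc hf

theorem comm_tq {x y : Y} {u u' : F4 × F4} (hx : φ x = Psi 3 F4 (tq u)) (hy : φ y = Psi 3 F4 (tq u')) :
    x * y = y * x := by
  obtain ⟨M, h, h1, t, h2⟩ := (by decide +kernel : ∀ u u' : F4 × F4, ∃ M, Ok M ∧ ac u' M = u' ∧ ∃ t, ac t M + u = t) u u'
  obtain ⟨g, hg⟩ := hf (lv M h)
  obtain ⟨a, ha⟩ := hf (tq (ac t M))
  refine comm_of_fix hc (a := a) (g := g) ?_ ?_ ?_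
  · rw [ha, hy, ← map_mul, ← map_mul, ← tq_add, ← tq_add, add_comm]
  · rw [hg, hy, ← map_mul, ← map_mul, ← lv_tq, h1]
  · rw [phi_conj hg ha, map_mul, ha, hx, ← map_mul, ← tq_add, h2]

theorem exists_D : ∃ D : Multiplicative (F4 × F4) →* Y, Function.Injective D ∧
    ∀ M (h : Ok M) g, φ g = Psi 3 F4 (lv M h) → ∀ u, g * D (.ofAdd (ac u M)) * g⁻¹ = D (.ofAdd u) := by
  choose T hT using fun u => hf (tq u)
  obtain ⟨s, hs⟩ := hf (lv _ ok_w)
  have h1 : ∀ u, φ ⁅s, T u⁆ = Psi 3 F4 (tq (ac u (w, 0, 0, w))) := fun u => by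
    obtain ⟨e1, e2⟩ := (by decide +kernel : ∀ u : F4 × F4, ac (ac u (v, 0, 0, v)) (w, 0, 0, w) = u ∧
      ac u (v, 0, 0, v) = ac u (w, 0, 0, w) + u) u
    rw [commutatorElement_def, map_mul, phi_conj (u := ac u (v, 0, 0, v)) hs (by rw [e1, hT]), e2, tq_add, map_mul,
      map_inv, hT, mul_inv_cancel_right]
  refine ⟨MonoidHom.mk' (fun u => ⁅s, T u.toAdd⁆) fun a b => ?_, (injective_iff_map_eq_one _).2 fun a ha => ?_,
    fun M h g hg u => ?_⟩
  · rw [comm_congr hc (a := s) rfl (b' := T a.toAdd * T b.toAdd)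
      (by rw [map_mul φ, hT, hT, hT, toAdd_mul, tq_add, map_mul])]
    calc ⁅s, T a.toAdd * T b.toAdd⁆ = ⁅s, T a.toAdd⁆ * (T a.toAdd * ⁅s, T b.toAdd⁆) * (T a.toAdd)⁻¹ := by
          simp only [commutatorElement_def]; group
      _ = _ := by rw [comm_tq hc hf (hT _) (h1 _)]; group
  · exact (by decide +kernel : ∀ u : F4 × F4, ac u (w, 0, 0, w) = 0 → u = 0) a.toAdd
      (eq_zero_of_tq ((h1 _).symm.trans ((congrArg φ ha).trans (map_one φ))))
  · refine (conjugate_commutatorElement _ _ _).trans (comm_congr hc ?_ ((phi_conj hg (hT _)).trans (hT _).symm))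
    rw [map_mul, map_mul, map_inv, hg, hs, ← map_mul, lv_w, map_mul, mul_inv_cancel_right]

variable [Finite Y] {V : Type} [AddCommGroup V] [Module (ZMod 3) V] [Finite V] {ρ : Representation (ZMod 3) Y V}

theorem core4 (hρ : Function.Injective ρ) : 15 ≤ finrank (ZMod 3) V ∧
    ∀ b, b ^ 3 = 1 → φ b = Psi 3 F4 (lv _ ok_z) → 10 ≤ cod ρ (zpowers b) := by
  obtain ⟨D, hD, he⟩ := exists_D hc hf
  have h1 : ∀ a ∈ D.range, ∀ b ∈ D.range, a * b = b * a := by
    rintro _ ⟨a, rfl⟩ _ ⟨b, rfl⟩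
    rw [← map_mul, mul_comm, map_mul]
  have h2 : ∀ M (h : Ok M) g, φ g = Psi 3 F4 (lv M h) → g ∈ normalizer (D.range : Set Y) := fun M h g hg =>
    inv_mem_iff.1 (mem_normalizer_fintype (by
      rintro _ ⟨a, rfl⟩
      exact ⟨.ofAdd (ac a.toAdd M), by
        rw [show D a = D (.ofAdd a.toAdd) from rfl, ← he M h g hg a.toAdd]
        group⟩))
  have h3 : Nat.card D.range = 16 := by
    rw [MonoidHom.range_eq_map, card_map_of_injective hD, card_top, Nat.card_eq_fintype_card]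
    rfl
  have h4 := trans_lb (ρ := ρ) (R := D.range) Nat.prime_two (by decide) h1 (by
    rintro _ ⟨a, rfl⟩
    rw [← map_pow, show a ^ 2 = 1 from (pow_two a).trans ((by decide +kernel : ∀ u : F4 × F4, u + u = 0) _), map_one])
    (by
      rintro _ ⟨a, rfl⟩ ha _ ⟨b, rfl⟩ hb
      obtain ⟨M, h, e⟩ := (by decide +kernel : ∀ a b : F4 × F4, a ≠ 0 → b ≠ 0 → ∃ M, Ok M ∧ ac a M = b) a.toAdd b.toAdd
        (fun e => ha (by rw [show a = 1 from e, map_one])) fun e => hb (by rw [show b = 1 from e, map_one])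
      obtain ⟨g, hg⟩ := hf (lv M h)
      refine ⟨g, h2 M h g hg, ?_⟩
      rw [show D a = D (.ofAdd a.toAdd) from rfl, ← he M h g hg, e]
      group
      rfl)
    ⟨_, ⟨.ofAdd (1, 0), rfl⟩, fun e => absurd (hD ((hρ (e.trans (map_one ρ).symm)).trans (map_one D).symm)) (by decide)⟩
  rw [h3] at h4
  refine ⟨h4.trans (cod_le_finrank _), fun b h5 h6 => ?_⟩
  have h7 := cod_comm_le (ρ := ρ) (B := D.range) h1 (by rw [h3]; decide) (s := 3) (n := 1) h5
    (fun x hx => (mem_normalizer_iff.1 (h2 _ _ b h6) x).1 hx) fun L hL => by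
      rintro _ ⟨a, rfl⟩
      obtain ⟨u, hu⟩ := (by decide +kernel : ∀ a : F4 × F4, ∃ u, u = a + ac u (w, 0, 0, v)) a.toAdd
      have := hL _ ⟨.ofAdd (ac u (w, 0, 0, v)), rfl⟩
      rw [he _ _ b h6] at this
      rwa [show Multiplicative.ofAdd u = a * .ofAdd (ac u (w, 0, 0, v)) from congrArg Multiplicative.ofAdd hu, map_mul,
        mul_inv_cancel_right] at this
  omega

end Core

/-- the matrices -/
def n4 (i : Fin 4) : Matrix (Fin 3) (Fin 3) F4 :=
  match i with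
  | 0 => !![0, 0, 1; 1, 0, 0; 0, 1, 0]
  | 1 => !![w, 0, 0; 0, v, 0; 0, 0, 1]
  | 2 => !![0, 0, w; v, 0, 0; 0, 1, 0]
  | 3 => !![1, 0, 0; 0, w, 0; 0, 0, v]

theorem n4_det : ∀ i, (n4 i).det = 1 := by
  simp only [det_fin_three]
  decide +kernel

/-- the elements -/
def g4 (i : Fin 4) : SLn 3 F4 := ⟨n4 i, n4_det i⟩

theorem cb4 {i : Fin 4} (h : n4 i * n4 i * n4 i = 1) : pr (g4 i) ^ 3 = 1 := by
  rw [← map_pow, _root_.pow_three', show g4 i * g4 i * g4 i = 1 from Subtype.ext h, map_one]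

theorem Psi_pr_eq {g : GL (Fin 3) F4} {s s' : SLn 3 F4} (h : g.1 * s.1 = s'.1 * g.1) : Psi 3 F4 g (pr s) = pr s' :=
  congrArg pr (Subtype.ext (show g.1 * s.1 * g⁻¹.1 = s'.1 by rw [h, mul_assoc, Units.mul_inv, mul_one]))

theorem cent4 : center (PL 3 F4) = ⊥ := centerL (by omega) (by omega)

theorem out4 : Nat.card (Out (PL 3 F4)) = 12 := outL (r := 2) (f := 2) Nat.prime_two (by omega) F4.card le_rfl

theorem rank4 (E : Subgroup (MulAut (PL 3 F4))) (hE : IsElementaryAbelian 3 E) : Nat.card E ≤ 3 ^ 2 := by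
  haveI := finL 3 F4
  let d : GL (Fin 3) F4 := GeneralLinearGroup.mkOfDetNeZero !![w, 0, 0; 0, 1, 0; 0, 0, 1] (by
    rw [det_fin_three]
    decide +kernel)
  refine rank_aut cent4 (D := Psi 3 F4 d) (s := pr (g4 0)) (z := pr (g4 1)) ?_ (cb4 (by decide +kernel))
    (cb4 (by decide +kernel)) ?_ (Psi_pr_eq (show d.1 * n4 1 = n4 1 * d.1 by decide +kernel)) ?_
    (prL_ne_one (t := g4 0) (show n4 0 * n4 1 ≠ n4 1 * n4 0 by decide +kernel)) ?_ E hE
  · rw [← map_pow, _root_.pow_three', show d * d * d = 1 from Units.ext (show d.1 * d.1 * d.1 = 1 by decide +kernel),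
      map_one]
  · rw [← map_mul, show g4 1 * g4 0 = g4 2 from Subtype.ext (show n4 1 * n4 0 = n4 2 by decide +kernel)]
    exact Psi_pr_eq (show d.1 * n4 0 = n4 2 * d.1 by decide +kernel)
  · rw [← map_mul, ← map_mul]
    exact pr_eq_of_smul (c := v) (show n4 0 * n4 1 = v • (n4 1 * n4 0) by decide +kernel)
  · rw [card_aut cent4, cardL (s := 20160) F4.card (by omega) (by decide +kernel), out4]
    decide +kernel

theorem lin4 {α : MulAut (PL 3 F4)} (h : α ^ 3 = 1) : ∃ g, α = Psi 3 F4 g := by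
  have h1 : ∀ σ : F4 ≃+* F4, phi 3 F4 σ * phi 3 F4 σ = 1 := fun σ => by
    have h2 : σ w * σ w = σ w + 1 := by rw [← map_mul, show w * w = w + 1 by decide, map_add, map_one]
    have h3 : σ v = σ w + 1 := by rw [show v = w + 1 by decide, map_add, map_one]
    have h4 : σ (σ w) = w := by
      rcases (by decide : ∀ t : F4, t * t = t + 1 → t = w ∨ t = v) _ h2 with e | e
      · rw [e, e]
      · rw [e, h3, e]
        decide
    rw [← map_mul, show σ * σ = 1 from RingEquiv.ext fun x => ?_, map_one]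
    show σ (σ x) = x
    rcases (by decide : ∀ t : F4, t = 0 ∨ t = 1 ∨ t = w ∨ t = w + 1) x with rfl | rfl | rfl | rfl
    · rw [map_zero, map_zero]
    · rw [map_one, map_one]
    · exact h4
    · rw [map_add, map_add, h4, map_one, map_one]
  obtain ⟨g, β, h2, h3⟩ : ∃ g β, α = Psi 3 F4 g * β ∧ β * β = 1 := by
    rcases exists_form (by omega) α with ⟨g, σ, e⟩ | ⟨-, g, σ, e⟩
    · exact ⟨g, _, e, h1 σ⟩
    · refine ⟨g, _, e.trans (mul_assoc _ _ _), ?_⟩
      rw [mul_assoc, ← mul_assoc (iot 3 F4), iot_mul_phi, mul_assoc, iot_mul_iot, mul_one, h1]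
  have h4 : α * α ∈ inndiagPSL 3 F4 := by
    rw [show α * α = Psi 3 F4 g * (β * Psi 3 F4 g * β⁻¹) * (β * β) by rw [h2]; group, h3, mul_one]
    exact mul_mem (Psi_mem g) ((inndiag_normal (by omega)).conj_mem _ (Psi_mem g) β)
  refine mem_inndiag.1 ?_
  have h5 := mul_mem h4 h4
  rwa [← mul_assoc, ← _root_.pow_three', h, one_mul] at h5

theorem row_four : Row 3 (PL 3 F4) := by
  haveI := finL 3 F4
  refine ⟨row88_of_rank rank4, row89_of_sit fun Y _ _ V _ _ _ K ρ π φ H A hA _ htop hlin hK => False.elim ?_⟩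
  obtain ⟨r, h0, h2, hc, hcod⟩ := off_data H hA rank4
  have cen : ∀ c, φ c = 1 → ∀ y, y * c = c * y := fun c h y => by
    have h1 := H.toFrm.φ_eq_one_iff.1 h
    have h3 : K ⊔ A ≤ centralizer {c} := sup_le (fun x hx => mem_centralizer_singleton_iff.2 (h1 x hx)) fun a ha =>
      mem_centralizer_singleton_iff.2 (H.faithful (by
        rw [map_mul, map_mul]
        exact (hlin (ρ c) (fun x hx => by rw [← map_mul, ← map_mul, h1 x hx]) a ha).symm))
    exact mem_centralizer_singleton_iff.1 (h3 (htop ▸ mem_top y))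
  obtain ⟨a, ha, haK⟩ := SetLike.not_le_iff_exists.1 hK
  obtain ⟨g₀, hg⟩ := lin4 (α := φ a) (by rw [← map_pow, hA.1.2 a ha, map_one])
  have inn : ∀ g : GL (Fin 3) F4, GeneralLinearGroup.det g = 1 → ∃ k : K, φ k = Psi 3 F4 g := fun g h => by
    obtain ⟨x, hx⟩ := (H350.PslOut.psi_inner_iff (by omega)).2 ⟨1, h.trans (one_pow 3).symm⟩
    obtain ⟨k, rfl⟩ := H.surj x
    exact ⟨k, (H.toFrm.φ_coe k).trans hx.symm⟩
  have ful : ∀ g, ∃ y, φ y = Psi 3 F4 g := fun g => by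
    obtain ⟨i, hi⟩ := (by decide +kernel : ∀ x y : F4, x ≠ 0 → y ≠ 0 → y ≠ 1 → ∃ i : Fin 3, x = y ^ i.1)
      _ _ (GeneralLinearGroup.det g).ne_zero (GeneralLinearGroup.det g₀).ne_zero fun e => by
        obtain ⟨k, hk⟩ := inn g₀ (Units.ext e)
        exact haK (H.toFrm.mem_inn_iff.1 ⟨π k, (H.toFrm.φ_coe k).symm.trans (hk.trans hg.symm)⟩)
    obtain ⟨k, hk⟩ := inn (g * (g₀ ^ i.1)⁻¹) (by
      rw [map_mul, map_inv, map_pow, mul_inv_eq_one]
      exact Units.ext hi)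
    exact ⟨k * a ^ i.1, by rw [map_mul, hk, map_pow, hg, ← map_pow, ← map_mul, inv_mul_cancel_right]⟩
  obtain ⟨h3, h4⟩ := core4 cen ful H.faithful
  obtain rfl | rfl : r = 1 ∨ r = 2 := by omega
  · have h5 := finrank_le_of_reach H (a := a) (hg ▸ reach_lin le_rfl fun e =>
      haK (H.toFrm.mem_inn_iff.1 ((hg.trans e).symm ▸ one_mem _)))
    have h6 := cod_le_of_mem (ρ := ρ) ha
    omega
  · obtain ⟨x, h5, b, hb, h6⟩ := exists_inn (E := A.map φ) (by
      rw [H.toStp.card_map H.toFrm (elemAb_isPGroup hA.1), hc, out4]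
      decide)
    have h7 : x ^ 3 = 1 := (conj_eq_one_iff cent4).1 (by rw [map_pow, ← h6, ← map_pow, hA.1.2 b hb, map_one])
    obtain ⟨g, hg⟩ := S2739.result F4 F4.card (zpowers x) (zpowers (pr (g4 3)))
      (by rw [Nat.card_zpowers, orderOf_eq_prime h7 fun e => h5 (by rw [e, map_one])])
      (by rw [Nat.card_zpowers, orderOf_eq_prime (cb4 (i := 3) (by decide +kernel))
        (prL_ne_one (t := g4 0) (show n4 0 * n4 3 ≠ n4 3 * n4 0 by decide +kernel))])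
    obtain ⟨_, ⟨j, rfl⟩, h8⟩ := (hg.ge (mem_zpowers _) : pr (g4 3) ∈ (zpowers x).map _)
    obtain ⟨k, rfl⟩ := H.surj g
    have h9 := h4 (k * b ^ j * (k : Y)⁻¹) (by rw [conj_pow, hA.1.2 _ (zpow_mem hb j), mul_one, mul_inv_cancel]) (by
      rw [map_mul, map_mul, map_inv, map_zpow, h6, H.toFrm.φ_coe, ← map_zpow, ← map_inv, ← map_mul, ← map_mul]
      exact (congrArg MulAut.conj h8).trans (Psi_coe (g4 3)).symm)
    rw [cod_zpowers_conj] at h9
    have h10 := cod_le_of_mem (ρ := ρ) (zpow_mem hb j)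
    omega

end Cfsg.Agent.TwoF.XL.P3

namespace Cfsg.Agent.TwoF.XL

open LieClassical.FieldTransfer

/-- **`L₂(8)`, `L₃(4)`, `L₆(2)`, `p = 3`** -/
theorem P3.lp3 : LP3 := by
  rintro F _ _ n (⟨rfl, hF⟩ | ⟨rfl, hF⟩ | ⟨rfl, hF⟩)
  · exact P3.row_eight.of_equiv (pslCongr (FiniteField.ringEquivOfCardEq (hF.trans TypeD4Two.F8.card_F8.symm)))
  · exact P3.row_four.of_equiv (pslCongr (Lib.FieldFour.equivOfCard hF))
  · exact P3.row_six.of_equiv (pslCongr (FiniteField.ringEquivOfCardEq (hF.trans (ZMod.card 2).symm)))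

end Cfsg.Agent.TwoF.XL
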