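import Cfsg.Agent.TwoF.XL.Fac
import Cfsg.Agent.TwoF.XL.Rch
import Cfsg.Agent.TwoF.XL.Defs
import Cfsg.Agent.TwoF.XE.Wt
import Cfsg.Agent.H380.RC.Ind
import Cfsg.Agent.H426.F16
import Cfsg.Agent.H777.M5.CGDef

/-!
# TwoF XL-P3: `U₃(4)`, `p = 5`, and `U₃(5)`, `p = 3` (helper35)
-/

set_option autoImplicit false

namespace Cfsg.Agent.TwoF.XL.P3

open Module Gen XE Subgroup Matrix

section Rank

variable {S : Type} [Group S] [Finite S]

/-- a non-abelian group of order `27` bounds the rank -/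
theorem rank_aut (hS : center S = ⊥) {D : MulAut S} {s z : S} (hD : D ^ 3 = 1) (hs : s ^ 3 = 1) (hz : z ^ 3 = 1)
    (h1 : D s = z * s) (h2 : D z = z) (h3 : z * s = s * z) (h4 : z ≠ 1) (h81 : ¬ 3 ^ 4 ∣ Nat.card (MulAut S))
    (E : Subgroup (MulAut S)) (hE : IsElementaryAbelian 3 E) : Nat.card E ≤ 3 ^ 2 := by
  haveI : Fact (Nat.Prime 3) := ⟨Nat.prime_three⟩
  let N : Subgroup S := zpowers s ⊔ zpowers z
  have hN : IsPGroup 3 N := elemAb_isPGroup (elemAb_of (comm_sup_zpowers h3) (exp_sup_zpowers h3 hz hs))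
  have ms : s ∈ N := mem_sup_left (mem_zpowers s)
  have mz : z ∈ N := mem_sup_right (mem_zpowers z)
  have hle : N ≤ N.comap D.toMonoidHom := sup_le (zpowers_le.2 (show D s ∈ N from h1 ▸ mul_mem mz ms))
    (zpowers_le.2 (show D z ∈ N from h2.symm ▸ mz))
  have hn : zpowers D ≤ normalizer ((N.map MulAut.conj : Subgroup (MulAut S)) : Set (MulAut S)) :=
    zpowers_le.2 (mem_normalizer_fintype (by
      rintro _ ⟨x, hx, rfl⟩
      exact ⟨D x, hle hx, conj_apply D x⟩))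
  refine card_le_of_not_elemAb (r₀ := 2) h81 ((elemAb_isPGroup (elemAb_zpowers hD)).to_sup_of_normal_right'
    (hN.map MulAut.conj) hn) (fun h => h4 ?_) E hE
  have h5 := elemAb_comm h (mem_sup_left (mem_zpowers D)) (mem_sup_right ⟨s, ms, rfl⟩)
  rw [← mul_inv_eq_iff_eq_mul, ← conj_apply, h1, map_mul, mul_eq_right] at h5
  exact (conj_eq_one_iff hS).1 h5

/-- a Sylow subgroup contains a conjugate of every `p`-element -/
theorem lo_of_le {p : ℕ} [Fact p.Prime] {E : Subgroup (MulAut S)} (hE : IsElementaryAbelian p E) {r n : ℕ}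
    (hc : Nat.card E = p ^ r) (hr : ¬ p ^ (r + 1) ∣ Nat.card (MulAut S)) {α : MulAut S} (hα : α ^ p = 1)
    (h : Le p α n) : Lo p E n := by
  obtain ⟨g, hg⟩ := exists_conj_le (elemAb_isPGroup hE) (fun e => hr (by
    rw [← E.card_mul_index, hc, pow_succ]
    exact mul_dvd_mul_left _ e)) (elemAb_isPGroup (elemAb_zpowers hα))
  exact (h.conj g).lo (hg ⟨α, mem_zpowers α, rfl⟩)

end Rank

open LieClassical.HermSiegel ClassicalGeometry ClassicalGeometry.PSUAutCount H380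
open ClassicalGeometry.PSUAutBasic (pr)

section Gen

variable {F : Type} [Field F] [Fintype F] {n q : ℕ}

theorem herm_of (hF : Fintype.card F = q ^ 2) {M : Matrix (Fin n) (Fin n) F} (h : Mᵀ * M.map (· ^ q) = 1)
    (u v : Fin n → F) : hermForm n F q (M *ᵥ u) (M *ᵥ v) = hermForm n F q u v :=
  (LieClassical.GUOrder.mul_map_eq_one_iff hF M).2 h u v

/-- `GU → Aut PSU` -/
noncomputable def thU (n : ℕ) (F : Type) [Field F] (q : ℕ) : GU n F q →* MulAut (PSU n F q) :=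
  MonoidHom.mk' (fun A => toAut A 1) fun A B => by
    rw [RC.toAut_mul, mul_one, show RC.gmap 1 B = B from gm_inj rfl]

omit [Fintype F] in
theorem thU_pr {A : GU n F q} {s s' : SU n F q} (h : gm A * mat s = mat s' * gm A) :
    thU n F q A (pr n F q s) = pr n F q s' :=
  congrArg (pr n F q) (Subtype.ext (Subtype.ext (show gm A * mat s * gm A⁻¹ = mat s' by
    rw [h, mul_assoc, gm_mul_inv, mul_one])))

omit [Fintype F] in
theorem su_ext {s s' : SU n F q} (h : mat s = mat s') : s = s' := Subtype.ext (Subtype.ext h)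

omit [Fintype F] in
theorem pr_ne_one {s t : SU n F q} (h : mat t * mat s ≠ mat s * mat t) : pr n F q s ≠ 1 := fun e =>
  h (congrArg mat (mem_center_iff.1 (PSUAutBasic.pr_eq_one_iff.1 e) t))

end Gen

/-! ### `U₃(5)` -/

section Five

open H777.M5

theorem card25 : Fintype.card K25 = 5 ^ 2 := K25.card_K

/-- the matrices -/
def m5 (i : Fin 4) : Matrix (Fin 3) (Fin 3) K25 :=
  match i with
  | 0 => !![0, 0, 1; 1, 0, 0; 0, 1, 0]
  | 1 => !![⟨2, 3⟩, 0, 0; 0, ⟨2, 2⟩, 0; 0, 0, 1]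
  | 2 => !![0, 0, ⟨2, 3⟩; ⟨2, 2⟩, 0, 0; 0, 1, 0]
  | 3 => (⟨2, 3⟩ : K25) • 1

/-- the diagonal automorphism -/
def d5 : Matrix (Fin 3) (Fin 3) K25 := !![⟨2, 3⟩, 0, 0; 0, 1, 0; 0, 0, 1]

theorem m5_ok : ∀ i, (m5 i).det = 1 ∧ (m5 i)ᵀ * (m5 i).map (· ^ 5) = 1 := by
  simp only [det_fin_three]
  decide +kernel

/-- the elements -/
def e5 (i : Fin 4) : SU 3 K25 5 := mkSU (m5 i) (m5_ok i).1 (herm_of card25 (m5_ok i).2)

theorem row_K25 : NoOff 3 (PSU 3 K25 5) := by
  haveI := finU 3 K25 5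
  have hZ := centerU card25 le_rfl (by omega)
  let d : GU 3 K25 5 := LieClassical.GUOrder.mkGU card25 d5 (herm_of card25 (by decide +kernel))
  have e2 : e5 1 * e5 0 = e5 2 := su_ext (show m5 1 * m5 0 = m5 2 by decide +kernel)
  refine noOff_of_reach (k := 4) (m := 2) (fun x hx => reach_U3 card25 (by omega) (by rw [hx]; exact Nat.prime_three))
    (rank_aut hZ (D := thU 3 K25 5 d) (s := pr 3 K25 5 (e5 0)) (z := pr 3 K25 5 (e5 1)) ?_ ?_ ?_ ?_ ?_ ?_ ?_ ?_)
    (lbU card25 (by norm_num) le_rfl (by omega) (by simp [ExU])) (by norm_num)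
  · rw [← map_pow, show d ^ 3 = 1 from gm_inj (by
      rw [_root_.pow_three', gm_mul, gm_mul]
      exact (by decide +kernel : d5 * d5 * d5 = 1)), map_one]
  · rw [← map_pow, _root_.pow_three', su_ext (s := e5 0 * e5 0 * e5 0) (s' := 1)
      (show m5 0 * m5 0 * m5 0 = 1 by decide +kernel), map_one]
  · rw [← map_pow, _root_.pow_three', su_ext (s := e5 1 * e5 1 * e5 1) (s' := 1)
      (show m5 1 * m5 1 * m5 1 = 1 by decide +kernel), map_one]
  · rw [← map_mul, e2]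
    exact thU_pr (show d5 * m5 0 = m5 2 * d5 by decide +kernel)
  · exact thU_pr (show d5 * m5 1 = m5 1 * d5 by decide +kernel)
  · have h3 : pr 3 K25 5 (e5 3) = 1 := PSUAutBasic.pr_eq_one_iff.2 (mem_center_iff.2 fun g => su_ext (by
      show mat g * ((⟨2, 3⟩ : K25) • 1) = ((⟨2, 3⟩ : K25) • 1) * mat g
      rw [mul_smul_comm, smul_mul_assoc, mul_one, one_mul]))
    rw [← map_mul, su_ext (s := e5 1 * e5 0) (s' := e5 0 * e5 1 * e5 3)
      (show m5 1 * m5 0 = m5 0 * m5 1 * m5 3 by decide +kernel), map_mul, h3, mul_one, map_mul]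
  · exact pr_ne_one (t := e5 0) (show m5 0 * m5 1 ≠ m5 1 * m5 0 by decide +kernel)
  · rw [card_aut hZ, cardU (s := 126000) card25 (by omega) (by decide +kernel),
      outU (r := 5) (f := 1) (q := 5) (by norm_num) le_rfl (by norm_num) card25 le_rfl (by omega)]
    decide +kernel

end Five

/-! ### `U₃(4)` -/

section Four

open H426 H426.K16

theorem card16 : Fintype.card K16 = 4 ^ 2 := card_K16

/-- the matrices -/
def m4 (i : Fin 9) : Matrix (Fin 3) (Fin 3) K16 :=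
  match i with
  | 0 => !![of 1, of 0, of 0; of 0, of 8, of 0; of 0, of 0, of 15]
  | 1 => !![of 12, of 7, of 7; of 6, of 10, of 9; of 14, of 7, of 0]
  | 2 => !![of 0, of 5, of 3; of 14, of 4, of 8; of 3, of 1, of 2]
  | 3 => !![of 0, of 5, of 3; of 9, of 6, of 12; of 2, of 15, of 13]
  | 4 => !![of 13, of 15, of 13; of 8, of 4, of 5; of 7, of 9, of 0]
  | 5 => !![of 7, of 15, of 2; of 8, of 3, of 2; of 13, of 11, of 15]
  | 6 => !![of 14, of 12, of 14; of 15, of 1, of 8; of 5, of 10, of 6]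
  | 7 => !![of 0, of 14, of 3; of 4, of 6, of 8; of 2, of 10, of 11]
  | 8 => !![of 11, of 13, of 12; of 7, of 8, of 11; of 10, of 13, of 3]

theorem m4_ok : ∀ i, (m4 i).det = 1 ∧ (m4 i)ᵀ * (m4 i).map (· ^ 4) = 1 := by
  simp only [det_fin_three]
  decide +kernel

/-- the elements -/
def e4 (i : Fin 9) : SU 3 K16 4 := mkSU (m4 i) (m4_ok i).1 (herm_of card16 (m4_ok i).2)

/-- the images -/
def f4 (i : Fin 9) : PSU 3 K16 4 := pr 3 K16 4 (e4 i)

theorem r4 {i j l : Fin 9} (h : m4 i * m4 j = m4 l) : f4 i * f4 j = f4 l :=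
  (map_mul _ _ _).symm.trans (congrArg _ (su_ext h))

theorem r4' {i j l m : Fin 9} (h : m4 i * m4 j = m4 l * m4 m) : f4 i * f4 j = f4 l * f4 m :=
  (map_mul _ _ _).symm.trans ((congrArg _ (su_ext h)).trans (map_mul _ _ _))

theorem x3 : f4 3 ^ 3 = f4 5 := by
  rw [_root_.pow_three', r4 (i := 3) (j := 3) (l := 4) (by decide +kernel),
    r4 (i := 4) (j := 3) (l := 5) (by decide +kernel)]

theorem x13 : f4 3 ^ 13 = 1 := by
  have x6 : f4 3 ^ 6 = f4 6 := by
    rw [show 6 = 3 + 3 from rfl, pow_add, x3, r4 (i := 5) (j := 5) (l := 6) (by decide +kernel)]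
  have x12 : f4 3 ^ 12 = f4 7 := by
    rw [show 12 = 6 + 6 from rfl, pow_add, x6, r4 (i := 6) (j := 6) (l := 7) (by decide +kernel)]
  rw [pow_succ, x12, f4, f4, ← map_mul, su_ext (s := e4 7 * e4 3) (s' := 1)
    (show m4 7 * m4 3 = 1 by decide +kernel), map_one]

theorem a5 : f4 0 ^ 5 = 1 := by
  rw [f4, ← map_pow, show e4 0 ^ 5 = e4 0 * e4 0 * e4 0 * e4 0 * e4 0 by simp only [pow_succ, pow_zero, one_mul],
    su_ext (s := e4 0 * e4 0 * e4 0 * e4 0 * e4 0) (s' := 1)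
      (show m4 0 * m4 0 * m4 0 * m4 0 * m4 0 = 1 by decide +kernel), map_one]

variable [Fact (Nat.Prime 5)]

theorem li_x : Li 5 (f4 3) 12 := by
  have h1 : f4 3 * f4 8 = f4 8 * f4 3 ^ 3 := by
    rw [x3]
    exact r4' (i := 3) (j := 8) (l := 8) (m := 5) (by decide +kernel)
  have h2 : f4 3 ≠ 1 := pr_ne_one (t := e4 0) (show m4 0 * m4 3 ≠ m4 3 * m4 0 by decide +kernel)
  have h3 : Zc 5 (PSU 3 K16 4) (Nat.gcd 3 (4 + 1)) := zc_of_cyclic (S2089.result 3 4 card16 le_rfl (by omega) (by simp))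
  exact Li.of_rat h3 (by norm_num : Nat.Prime 13) (by norm_num) (by omega) h2 x13 h1
    [(0, 0), (0, 1), (0, 2), (0, 3), (1, 0), (1, 1), (1, 2), (1, 3), (2, 0), (2, 1), (2, 2), (2, 3)] (by decide)

theorem li_a : Li 5 (f4 0) 5 := by
  refine Li.two (f4 1) (n := 12) ?_ (by norm_num)
  rw [mul_inv_eq_of_eq_mul (r4' (i := 1) (j := 0) (l := 2) (m := 1) (by decide +kernel)),
    r4 (i := 0) (j := 2) (l := 3) (by decide +kernel)]
  exact li_x

theorem row_K16 : Row 5 (PSU 3 K16 4) := by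
  haveI := finU 3 K16 4
  have hZ := centerU card16 le_rfl (by omega)
  have ho := outU (r := 2) (f := 2) (q := 4) (by norm_num) (by omega) (by norm_num) card16 le_rfl (by omega)
  have hA : ¬ 5 ^ 3 ∣ Nat.card (MulAut (PSU 3 K16 4)) := by
    rw [card_aut hZ, cardU (s := 62400) card16 (by omega) (by decide +kernel), ho]
    decide +kernel
  refine ⟨row88_of_lo fun E hE r hr hc => ?_, row89_of_not_dvd (by rw [ho]; decide +kernel)⟩
  have hr2 : r ≤ 2 := (Nat.pow_le_pow_iff_right (by norm_num)).1 (hc.symm.trans_le (rank_of_not_dvd hA E hE))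
  obtain rfl : r = 2 := le_antisymm hr2 hr
  exact lo_of_le hE hc hA (by rw [← map_pow, a5, map_one]) li_a

end Four

end Cfsg.Agent.TwoF.XL.P3

namespace Cfsg.Agent.TwoF.XL

/-- **`U₃(4)`, `p = 5`, and `U₃(5)`, `p = 3`** -/
theorem P3.up3 : UP3 := by
  rintro p _ F _ _ q hF (⟨rfl, rfl⟩ | ⟨rfl, rfl⟩)
  · exact P3.row_K16.of_equiv (LieClassical.FieldTransfer.psuCongr 3 4
      (FiniteField.ringEquivOfCardEq (hF.trans P3.card16.symm)))
  · exact P3.row_K25.row.of_equiv (LieClassical.FieldTransfer.psuCongr 3 5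
      (FiniteField.ringEquivOfCardEq (hF.trans P3.card25.symm)))

end Cfsg.Agent.TwoF.XL
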